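import Cfsg.Agent.H34.SporTool3
import Cfsg.Agent.H34.SporDvd
import Cfsg.Agent.H964.NoHall.RowTh

/-!
# The Thompson group: the automizers of the Sylow subgroups of orders 19 and 31 (helper34)

`z = tsbUdca` has order 31 and `z g = g z ^ 7` for the word `g` of length 29 below; `7` has order 15 modulo 31.
(Found by a birthday search for the pair `(involution, z)` and meet in the middle in the centralizer of an
involution.)
-/

set_option autoImplicit false
set_option Elab.async false

namespace Cfsg.Agent.H34.SporTh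

open Cfsg Cfsg.Agent.H635.Spor Cfsg.Agent.H34.SporTool Cfsg.Agent.H34.SporDvd
open Cfsg.Agent.Th.Gen248 Cfsg.Agent.Th.Hom248 Cfsg.Agent.Th.Final
open Cfsg.Agent.H964.NoHall (wl thE thE_eq thE_ne thE_pow thE_mul thE_one thH_conj thA_conj thW_order thH thW)

/-- an element of order 31 -/
def zW : Wd := wl [.t, .s, .b, .U, .d, .c, .a]

/-- an element normalizing `⟨z⟩` -/
def gW : Wd := wl [.U, .T, .b, .c, .d, .S, .a, .U, .b, .T, .s, .e, .d, .T, .s, .e, .U, .d, .S, .T, .b, .U, .b, .d, .U,
  .d, .t, .u, .S]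

set_option maxRecDepth 100000 in
theorem z31 : Nat.beq (evN false (.pow (.pow (.pow (.pow (.pow zW 2) 2) 2) 2) 2)) (evN false zW) = true := by
  decide +kernel

set_option maxRecDepth 100000 in
theorem z_ne : Nat.beq (evN false zW) (evN false .one) = false := by decide +kernel

set_option maxRecDepth 100000 in
theorem zg : Nat.beq (evN false (.mul zW gW)) (evN false (.mul gW (.mul (.pow (.pow zW 2) 3) zW))) = true := by
  decide +kernel

theorem ord31 : orderOf (thE zW) = 31 := by
  have : Fact (Nat.Prime 31) := ⟨by norm_num⟩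
  apply orderOf_eq_prime
  · have h := thE_eq z31
    rw [thE_pow, thE_pow, thE_pow, thE_pow, thE_pow, ← pow_mul, ← pow_mul, ← pow_mul, ← pow_mul,
      show 2 * 2 * 2 * 2 * 2 = 31 + 1 by norm_num, pow_succ] at h
    exact mul_eq_right.1 h
  · have h := thE_ne z_ne
    rwa [thE_one] at h

theorem conj31 : (thE gW)⁻¹ * thE zW * (thE gW)⁻¹⁻¹ = thE zW ^ 7 := by
  have h := thE_eq zg
  rw [thE_mul, thE_mul, thE_mul, thE_pow, thE_pow, ← pow_mul, ← pow_succ] at h
  rw [inv_inv, mul_assoc, h, inv_mul_cancel_left]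

theorem conj19 : thE thH * thE thW * (thE thH)⁻¹ = thE thW ^ 6 := by
  rw [thH_conj, mul_inv_cancel_right]

theorem conj19' : thE (.g .a) * thE thW * (thE (.g .a))⁻¹ = thE thW ^ 18 := by
  rw [thA_conj, mul_inv_cancel_right]

theorem o7 : orderOf ((7 : ℕ) : ZMod 31) = 15 :=
  (orderOf_eq_iff (by norm_num)).2 ⟨by decide +kernel, by decide +kernel⟩

theorem o6 : orderOf ((6 : ℕ) : ZMod 19) = 9 :=
  (orderOf_eq_iff (by norm_num)).2 ⟨by decide +kernel, by decide +kernel⟩

theorem o18 : orderOf ((18 : ℕ) : ZMod 19) = 2 :=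
  (orderOf_eq_iff (by norm_num)).2 ⟨by decide +kernel, by decide +kernel⟩

/-- The inertial index for 31 is divisible by 15. -/
theorem e31 [Fact (Nat.Prime 31)] [Finite Spor.Th] (K : Blk 31 Spor.Th) : 15 ∣ K.e := by
  have h := dvd_e K ord31 conj31
  rwa [o7] at h

/-- The inertial index for 19 is 18. -/
theorem e19 [Fact (Nat.Prime 19)] [Finite Spor.Th] (K : Blk 19 Spor.Th) : K.e = 18 := by
  have h := dvd_e K thW_order conj19
  have h' := dvd_e K thW_order conj19'
  rw [o6] at h
  rw [o18] at h'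
  have h4 : 18 ∣ K.e := by
    have := Nat.Coprime.mul_dvd_of_dvd_of_dvd (by norm_num : Nat.Coprime 9 2) h h'
    simpa using this
  have h5 : K.e ∣ 18 := ⟨K.t, K.ht.symm⟩
  exact Nat.dvd_antisymm h5 h4

end Cfsg.Agent.H34.SporTh
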